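import Mathlib
import Cfsg.Agent.UCase.Proper
import Cfsg.Agent.Uni.Gen2
import Cfsg.Agent.Uni.Stab
import Cfsg.Agent.Uni.Iso

set_option autoImplicit false
set_option linter.unusedSectionVars false
set_option linter.unusedVariables false
set_option linter.style.haveILetI false

/-!
Centres of transvections in a subgroup of `SU`.
-/

namespace Cfsg.Agent.USub

open scoped Matrix
open Cfsg.Agent.Uni Cfsg.Geo Module
open Cfsg.Agent.UCase (SG suHom suHom_coe suHom_mem suHom_range suHom_mulVec exists_suHom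
  not_le_subspaceStabilizer suHom_injective)

variable {F : Type*} [Field F] [Fintype F] {q n : ℕ}

/-- Centres of full transvection groups in `M`. -/
def XT (M : Subgroup (SU n F q)) : Set (Fin n → F) :=
  {x | hermForm n F q x x = 0 ∧ ∀ c : F, c ^ q = -c → ∀ g : SU n F q,
    (∀ y, act g y = y + (c * hermForm n F q y x) • x) → g ∈ M}

theorem xt_conj {M : Subgroup (SU n F q)} {x : Fin n → F} (hx : x ∈ XT M) {k : SU n F q}
    (hk : k ∈ M) : act k x ∈ XT M := by
  refine ⟨by rw [act_form]; exact hx.1, fun c hc g hg => ?_⟩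
  have h1 : k⁻¹ * g * k ∈ M := by
    refine hx.2 c hc _ fun y => ?_
    rw [act_mul, act_mul, hg, act_add, act_inv_act, act_smul, act_inv_act, act_form]
  have h2 : g = k * (k⁻¹ * g * k) * k⁻¹ := by group
  rw [h2]
  exact M.mul_mem (M.mul_mem hk h1) (M.inv_mem hk)

theorem xt_smul (hF : Fintype.card F = q ^ 2) {M : Subgroup (SU n F q)} {x : Fin n → F}
    (hx : x ∈ XT M) (a : F) : a • x ∈ XT M := by
  refine ⟨by rw [hermForm_smul_left, hermForm_smul_right, hx.1]; ring, fun c hc g hg => ?_⟩
  refine hx.2 (c * a ^ (q + 1)) ?_ g fun y => ?_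
  · rw [mul_pow, hc, ← pow_mul, mul_comm (q + 1) q, pow_mul]
    have : (a ^ q) ^ (q + 1) = a ^ (q + 1) := by
      rw [pow_succ, pow_q_pow_q hF, pow_succ, mul_comm]
    rw [this]; ring
  · rw [hg, hermForm_smul_right, smul_smul]
    congr 2
    rw [pow_succ]; ring

/-- Isotropic vectors on a hyperbolic line through two centres. -/
theorem xt_pair (hF : Fintype.card F = q ^ 2) {M : Subgroup (SU n F q)} {x y : Fin n → F}
    (hx : x ∈ XT M) (hy : y ∈ XT M) (hxy : hermForm n F q x y ≠ 0) {m : F}
    (hm : hermForm n F q (y + m • x) (y + m • x) = 0) : y + m • x ∈ XT M := by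
  set f := hermForm n F q x y with hf
  have hyx : hermForm n F q y x = f ^ q := (hermForm_symm hF _ _).symm
  have h1 : m ^ q * f ^ q + m * f = 0 := by
    rw [hermForm_add_left, hermForm_add_right hF, hermForm_smul_left, hermForm_add_right hF,
      hermForm_smul_right, hermForm_smul_right, hx.1, hy.1, hyx, ← hf] at hm
    linear_combination hm
  have hfq : f ^ q ≠ 0 := pow_ne_zero _ hxy
  obtain ⟨c, hc⟩ : ∃ c, c = m / f ^ q := ⟨_, rfl⟩
  have hcs : c ^ q = -c := by
    rw [hc, div_pow, pow_q_pow_q hF]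
    field_simp
    linear_combination h1
  obtain ⟨g, -, hg⟩ := exists_transv hF hx.1 hcs
  have h2 := xt_conj hy (hx.2 c hcs g hg)
  rw [hg, hyx, hc, div_mul_cancel₀ _ hfq] at h2
  exact h2

theorem xt_zero (M : Subgroup (SU n F q)) (hF : Fintype.card F = q ^ 2) : (0 : Fin n → F) ∈ XT M := by
  refine ⟨hermForm_zero_left _, fun c hc g hg => ?_⟩
  have : g = 1 := by
    apply act_ext
    intro y
    rw [hg, smul_zero, add_zero, act_one]
  rw [this]
  exact M.one_mem

/-- All isotropic vectors are centres. -/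
theorem top_of_xt (hF : Fintype.card F = q ^ 2) (hn : 2 ≤ n) (h32 : ¬ (n = 3 ∧ q = 2))
    {M : Subgroup (SU n F q)} (h : ∀ x, hermForm n F q x x = 0 → x ∈ XT M) : M = ⊤ := by
  rw [eq_top_iff, ← TT_eq_top hF hn h32]
  unfold TT
  rw [Subgroup.closure_le]
  rintro A ⟨v, c, hv, hA⟩
  have hAx : ∀ x, act A x = x + (c * hermForm n F q x v) • v := by
    intro x
    rw [act_def, hA, unitaryTransvection_mulVec]
  by_cases hv0 : v = 0
  · have : A = 1 := by
      apply act_ext
      intro x
      rw [hAx, hv0, smul_zero, add_zero, act_one]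
    rw [this]; exact M.one_mem
  obtain ⟨z, hz⟩ := exists_form_ne (q := q) hF hv0
  have hz' : hermForm n F q z v ≠ 0 := by
    intro h0
    exact hz ((hermForm_eq_zero_comm hF).1 h0)
  have h1 := act_form A z z
  rw [hAx, hermForm_add_left, hermForm_add_right hF, hermForm_add_right hF, hermForm_smul_left,
    hermForm_smul_left, hermForm_smul_right, hermForm_smul_right, hv, mul_pow] at h1
  have h2 : hermForm n F q v z = (hermForm n F q z v) ^ q := (hermForm_symm hF _ _).symm
  rw [h2] at h1
  have h3 : (c ^ q + c) * ((hermForm n F q z v) * (hermForm n F q z v) ^ q) = 0 := by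
    linear_combination h1
  have h4 : c ^ q + c = 0 := by
    rcases mul_eq_zero.1 h3 with h | h
    · exact h
    · exact absurd h (mul_ne_zero hz' (pow_ne_zero _ hz'))
  exact (h v hv).2 c (by linear_combination h4) A hAx

/-- Reduction of maximality in `SG` to `SU`. -/
theorem isMaximalIn_of_su {H : Subgroup (GL (Fin n) F)} (hH : H ≤ SG n F q) (hne : ¬ SG n F q ≤ H)
    (h : ∀ M : Subgroup (SU n F q), H.comap (suHom n F q) ≤ M → M ≠ H.comap (suHom n F q) → M = ⊤) :
    IsMaximalIn (SG n F q) H := by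
  refine ⟨lt_of_le_of_ne hH fun he => hne (by rw [he]), fun K hK1 hK2 => ?_⟩
  have hmap : ∀ L : Subgroup (GL (Fin n) F), L ≤ SG n F q → (L.comap (suHom n F q)).map (suHom n F q) = L := by
    intro L hL
    rw [Subgroup.map_comap_eq, suHom_range]
    exact inf_eq_right.2 hL
  by_cases he : K.comap (suHom n F q) = H.comap (suHom n F q)
  · left
    rw [← hmap K hK2, he, hmap H hH]
  · right
    have := h _ (Subgroup.comap_mono hK1) he
    refine le_antisymm hK2 ?_
    rw [← suHom_range]
    rintro _ ⟨g, rfl⟩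
    have hg : g ∈ K.comap (suHom n F q) := by rw [this]; exact Subgroup.mem_top g
    exact hg

theorem mem_comap_stab {W : Submodule F (Fin n → F)} {g : SU n F q} :
    g ∈ (subspaceStabilizer W ⊓ SG n F q).comap (suHom n F q) ↔ ∀ v, v ∈ W ↔ act g v ∈ W := by
  rw [Subgroup.mem_comap, Subgroup.mem_inf]
  constructor
  · rintro ⟨h, -⟩ v
    exact Cfsg.Agent.AschCases.mem_subspaceStabilizer.1 h v
  · intro h
    exact ⟨Cfsg.Agent.AschCases.mem_subspaceStabilizer.2 h, suHom_mem g⟩

theorem mem_comap_stab' {W : Submodule F (Fin n → F)} {g : SU n F q} (h : ∀ v ∈ W, act g v ∈ W) :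
    g ∈ (subspaceStabilizer W ⊓ SG n F q).comap (suHom n F q) := by
  rw [mem_comap_stab]
  intro v
  refine ⟨h v, fun hv => ?_⟩
  -- the induced map is bijective
  let T : (Fin n → F) →ₗ[F] (Fin n → F) :=
    { toFun := fun x => act g x
      map_add' := fun x y => act_add g x y
      map_smul' := fun c x => act_smul g c x }
  have hinj : Function.Injective T := by
    intro x y hxy
    have h1 : act g x = act g y := hxy
    rw [← act_inv_act g x, h1, act_inv_act]
  have h1 : W.map T ≤ W := by
    rintro _ ⟨x, hx, rfl⟩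
    exact h x hx
  have h2 : finrank F (W.map T) = finrank F W :=
    (LinearEquiv.finrank_eq (Submodule.equivMapOfInjective T hinj W)).symm
  have h3 := Submodule.eq_of_le_of_finrank_eq h1 h2
  rw [← h3] at hv
  obtain ⟨x, hx, hxv⟩ := hv
  rwa [← hinj hxv]

end Cfsg.Agent.USub
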