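import Mathlib
import Cfsg.Agent.USub.XT

set_option autoImplicit false
set_option linter.unusedSectionVars false
set_option linter.unusedVariables false
set_option linter.style.haveILetI false

/-!
Stabilisers of totally isotropic subspaces are maximal.
-/

namespace Cfsg.Agent.USub

open scoped Matrix
open Cfsg.Agent.Uni Cfsg.Geo Module
open Cfsg.Agent.UCase (SG suHom suHom_coe suHom_mem suHom_range suHom_mulVec exists_suHom
  not_le_subspaceStabilizer suHom_injective)

variable {F : Type*} [Field F] [Fintype F] {q n : ℕ}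

/-- Making a vector isotropic along `u`. -/
theorem exists_add_iso (hF : Fintype.card F = q ^ 2) {z u : Fin n → F} (hu : hermForm n F q u u = 0)
    (hzu : hermForm n F q z u ≠ 0) :
    ∃ l : F, hermForm n F q (z + l • u) (z + l • u) = 0 := by
  obtain ⟨t, ht⟩ := exists_trace_eq (F := F) (q := q) hF (c := -hermForm n F q z z)
    (by rw [neg_pow_q hF, hermForm_self_pow_q hF])
  have huz : hermForm n F q u z = (hermForm n F q z u) ^ q := (hermForm_symm hF _ _).symm
  have huz0 : hermForm n F q u z ≠ 0 := by rw [huz]; exact pow_ne_zero _ hzu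
  have hzu' : hermForm n F q z u = (hermForm n F q u z) ^ q := (hermForm_symm hF _ _).symm
  refine ⟨t / hermForm n F q u z, ?_⟩
  rw [hermForm_add_left, hermForm_add_right hF, hermForm_smul_left, hermForm_add_right hF,
    hermForm_smul_right, hermForm_smul_right, hu, div_pow, ← hzu']
  field_simp
  linear_combination (hermForm n F q z u * hermForm n F q u z) * ht

/-- The main statement. -/
theorem ti_main (hF : Fintype.card F = q ^ 2) (hn : 2 ≤ n) (h32 : ¬ (n = 3 ∧ q = 2))
    {W : Submodule F (Fin n → F)} (hW : ∀ u ∈ W, ∀ v ∈ W, hermForm n F q u v = 0)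
    (M : Subgroup (SU n F q)) (hle : (subspaceStabilizer W ⊓ SG n F q).comap (suHom n F q) ≤ M)
    (hne : M ≠ (subspaceStabilizer W ⊓ SG n F q).comap (suHom n F q)) : M = ⊤ := by
  have h1 : ∀ x ∈ perp q W, hermForm n F q x x = 0 → x ∈ XT M := by
    intro x hxW hx
    refine ⟨hx, fun c hc g hg => hle (mem_comap_stab' fun v hv => ?_)⟩
    have : hermForm n F q v x = 0 := (mem_perp' hF).1 hxW v hv
    rw [hg, this, mul_zero, zero_smul, add_zero]
    exact hv
  obtain ⟨g, hgM, hg⟩ : ∃ g ∈ M, g ∉ (subspaceStabilizer W ⊓ SG n F q).comap (suHom n F q) := by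
    by_contra hcon
    push Not at hcon
    exact hne (le_antisymm hcon hle)
  obtain ⟨w, hw, hgw⟩ : ∃ w ∈ W, act g w ∉ W := by
    by_contra hcon
    push Not at hcon
    exact hg (mem_comap_stab' hcon)
  have hWp : ∀ v ∈ W, v ∈ perp q W := fun v hv u hu => hW v hv u hu
  -- a centre outside
  obtain ⟨x₀, hx₀, hx₀W⟩ : ∃ x₀ ∈ XT M, x₀ ∉ perp q W := by
    by_contra hcon
    push Not at hcon
    have hw' : w ∈ XT M := h1 w (hWp w hw) (hW w hw w hw)
    have hu := xt_conj hw' hgM
    have huW := hcon _ hu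
    have hz : ∃ z ∈ perp q W, hermForm n F q z (act g w) ≠ 0 := by
      by_contra hcon2
      push Not at hcon2
      apply hgw
      rw [← perp_perp hF W, mem_perp' hF]
      exact hcon2
    obtain ⟨z, hz, hzu⟩ := hz
    obtain ⟨l, hl⟩ := exists_add_iso hF hu.1 hzu
    have hz' : z + l • act g w ∈ XT M :=
      h1 _ (Submodule.add_mem _ hz (Submodule.smul_mem _ _ huW)) hl
    have h2 := hcon _ (xt_conj hz' (M.inv_mem hgM)) w hw
    apply hzu
    rw [← act_form g, act_act_inv, hermForm_add_left, hermForm_smul_left, hu.1, mul_zero,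
      add_zero] at h2
    exact h2
  -- all isotropic vectors outside `W^⊥`
  have h3 : ∀ y, hermForm n F q y y = 0 → y ∉ perp q W → y ∈ XT M := by
    intro y hy hyW
    obtain ⟨w₁, hw₁, hxw₁⟩ : ∃ w ∈ W, hermForm n F q x₀ w ≠ 0 := by
      by_contra hcon
      push Not at hcon
      exact hx₀W hcon
    obtain ⟨w₂, hw₂, hyw₂⟩ : ∃ w ∈ W, hermForm n F q y w ≠ 0 := by
      by_contra hcon
      push Not at hcon
      exact hyW hcon
    obtain ⟨w, hw, hxw, hyw⟩ : ∃ w ∈ W, hermForm n F q x₀ w ≠ 0 ∧ hermForm n F q y w ≠ 0 := by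
      by_cases h4 : hermForm n F q y w₁ = 0
      · by_cases h5 : hermForm n F q x₀ w₂ = 0
        · exact ⟨w₁ + w₂, Submodule.add_mem _ hw₁ hw₂, by rwa [hermForm_add_right hF, h5, add_zero],
            by rwa [hermForm_add_right hF, h4, zero_add]⟩
        · exact ⟨w₂, hw₂, h5, hyw₂⟩
      · exact ⟨w₁, hw₁, hxw₁, h4⟩
    obtain ⟨x, hx⟩ : ∃ x, x = (hermForm n F q x₀ w)⁻¹ • x₀ := ⟨_, rfl⟩
    obtain ⟨y', hy'⟩ : ∃ y', y' = (hermForm n F q y w)⁻¹ • y := ⟨_, rfl⟩
    have hxX : x ∈ XT M := by rw [hx]; exact xt_smul hF hx₀ _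
    have hxw1 : hermForm n F q x w = 1 := by rw [hx, hermForm_smul_left, inv_mul_cancel₀ hxw]
    have hyw1 : hermForm n F q y' w = 1 := by rw [hy', hermForm_smul_left, inv_mul_cancel₀ hyw]
    have hwx1 : hermForm n F q w x = 1 := by rw [← hermForm_symm hF, hxw1, one_pow]
    have hyy : hermForm n F q y' y' = 0 := by
      rw [hy', hermForm_smul_left, hermForm_smul_right, hy]; ring
    have hww := hW w hw w hw
    obtain ⟨a, ha⟩ : ∃ a, a = hermForm n F q y' x := ⟨_, rfl⟩
    obtain ⟨v, hv⟩ : ∃ v, v = y' - x - a • w := ⟨_, rfl⟩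
    have hvx : hermForm n F q v x = 0 := by
      rw [hv, hermForm_sub_left, hermForm_sub_left, hermForm_smul_left, hxX.1, hwx1, ← ha]; ring
    have hvw : hermForm n F q v w = 0 := by
      rw [hv, hermForm_sub_left, hermForm_sub_left, hermForm_smul_left, hxw1, hyw1, hww]; ring
    have hxv := (hermForm_eq_zero_comm hF).1 hvx
    have hwv := (hermForm_eq_zero_comm hF).1 hvw
    have hy2 : y' = x + v + a • w := by rw [hv]; module
    have has : a + a ^ q = -hermForm n F q v v := by
      have h4 : hermForm n F q (x + v + a • w) (x + v + a • w) = 0 := by rw [← hy2]; exact hyy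
      simp only [hermForm_add_left, hermForm_add_right hF, hermForm_smul_left, hermForm_smul_right,
        hxX.1, hxv, hvx, hvw, hwv, hww, hxw1, hwx1] at h4
      linear_combination h4
    obtain ⟨k, hk⟩ := exists_eich hF w v a hww hwv has
    have hkM : k ∈ M := hle (mem_comap_stab' fun z hz => by
      rw [hk, hW z hz w hw, zero_smul, mul_zero, zero_smul, add_zero, add_zero]
      exact Submodule.sub_mem _ hz (Submodule.smul_mem _ _ hw))
    have h4 := xt_conj hxX hkM
    rw [hk, hxw1, hxv, one_smul, zero_smul, sub_zero, mul_one, ← hy2] at h4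
    have h5 := xt_smul hF h4 (hermForm n F q y w)
    rwa [hy', smul_smul, mul_inv_cancel₀ hyw, one_smul] at h5
  refine top_of_xt hF hn h32 fun x hx => ?_
  by_cases hxW : x ∈ perp q W
  · exact h1 x hxW hx
  · exact h3 x hx hxW

theorem ti_maximal (hF : Fintype.card F = q ^ 2) (hn : 4 ≤ n)
    {W : Submodule F (Fin n → F)} (hW0 : W ≠ ⊥)
    (hW : ∀ u ∈ W, ∀ v ∈ W, hermForm n F q u v = 0) :
    IsMaximalIn (SG n F q) (subspaceStabilizer W ⊓ SG n F q) := by
  refine isMaximalIn_of_su inf_le_right ?_ fun M h1 h2 =>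
    ti_main hF (by omega) (by omega) hW M h1 h2
  intro h
  refine not_le_subspaceStabilizer (F := F) hF (by omega) W hW0 ?_ (h.trans inf_le_left)
  rintro rfl
  obtain ⟨z, -, hz⟩ := (nd_top (n := n) (F := F) (q := q) hF).exists_unit hF (by
    intro h
    have : finrank F (⊤ : Submodule F (Fin n → F)) = 0 := by rw [h, finrank_bot]
    rw [finrank_top, Module.finrank_fin_fun] at this
    omega)
  rw [hW z Submodule.mem_top z Submodule.mem_top] at hz
  exact zero_ne_one hz

end Cfsg.Agent.USub
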