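import Mathlib
import Cfsg.Agent.USub.TI
import Cfsg.Agent.UTP.Geo

set_option autoImplicit false
set_option linter.unusedSectionVars false
set_option linter.unusedVariables false
set_option linter.style.haveILetI false

/-!
Stabilisers of nondegenerate subspaces: geometry.
-/

namespace Cfsg.Agent.USub

open scoped Matrix
open Cfsg.Agent.Uni Cfsg.Geo Module
open Cfsg.Agent.UCase (SG suHom suHom_coe suHom_mem suHom_range suHom_mulVec exists_suHom
  not_le_subspaceStabilizer suHom_injective)

variable {F : Type*} [Field F] [Fintype F] {q n : ℕ}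

/-- Moving a vector orthogonal to a pointwise fixed subspace. -/
theorem exists_GU_fix (hF : Fintype.card F = q ^ 2) {Y : Submodule F (Fin n → F)} (hY : ND q Y)
    {c c' : Fin n → F} (hc : c ∈ perp q Y) (hc' : c' ∈ perp q Y) (hc0 : c ≠ 0) (hc'0 : c' ≠ 0)
    (h : hermForm n F q c c = hermForm n F q c' c') :
    ∃ g : GU n F q, (∀ y ∈ Y, gact g y = y) ∧ gact g c = c' := by
  let B := finBasis F Y
  have hspan : Submodule.span F (Set.range fun i => (B i : Fin n → F)) = Y := by
    have h1 : (Set.range fun i => (B i : Fin n → F)) = Y.subtype '' Set.range B := by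
      ext x; simp
    rw [h1, Submodule.span_image, B.span_eq, Submodule.map_top, Submodule.range_subtype]
  have hli : LinearIndependent F (fun i => (B i : Fin n → F)) :=
    B.linearIndependent.map' Y.subtype (Submodule.ker_subtype Y)
  have hnot : ∀ c : Fin n → F, c ∈ perp q Y → c ≠ 0 → c ∉ Y := by
    intro c h1 h2 h3
    exact h2 (hY c h3 h1)
  have hL : ∀ c : Fin n → F, c ∈ perp q Y → c ≠ 0 →
      LinearIndependent F (Fin.cons c (fun i => (B i : Fin n → F)) : Fin (finrank F Y + 1) → Fin n → F) := by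
    intro c h1 h2
    rw [linearIndependent_finCons]
    exact ⟨hli, by rw [hspan]; exact hnot c h1 h2⟩
  obtain ⟨g, hg⟩ := exists_GU_of_family hF (hL c hc hc0) (hL c' hc' hc'0) (by
    intro i j
    refine Fin.cases ?_ (fun i => ?_) i <;> refine Fin.cases ?_ (fun j => ?_) j
    · simpa using h
    · simp only [Fin.cons_zero, Fin.cons_succ]
      rw [hc _ (B j).2, hc' _ (B j).2]
    · simp only [Fin.cons_zero, Fin.cons_succ]
      rw [(mem_perp' hF).1 hc _ (B i).2, (mem_perp' hF).1 hc' _ (B i).2]
    · simp only [Fin.cons_succ])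
  refine ⟨g, fun y hy => ?_, hg 0⟩
  rw [← hspan] at hy
  induction hy using Submodule.span_induction with
  | mem z hz =>
    obtain ⟨i, rfl⟩ := hz
    exact hg i.succ
  | zero => exact gact_zero g
  | add a b _ _ ha hb => rw [gact_add, ha, hb]
  | smul t a _ ha => rw [gact_smul, ha]

/-- Determinant adjustment along an anisotropic vector. -/
theorem exists_SU_adjust (hF : Fintype.card F = q ^ 2) (g : GU n F q) {e : Fin n → F}
    (he : hermForm n F q e e ≠ 0) :
    ∃ k : SU n F q, ∀ z, hermForm n F q (gact g z) e = 0 → act k z = gact g z := by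
  -- a unit vector
  obtain ⟨μ, hμ⟩ := exists_norm_eq (F := F) (q := q) hF (c := (hermForm n F q e e)⁻¹)
    (by rw [inv_pow, hermForm_self_pow_q hF])
  have hunit : hermForm n F q (μ • e) (μ • e) = 1 := by
    rw [hermForm_smul_left, hermForm_smul_right, ← mul_assoc, ← pow_succ', hμ, inv_mul_cancel₀ he]
  obtain ⟨a, ha⟩ : ∃ a : F, a = ((detHom hF n g : Fˣ) : F)⁻¹ := ⟨_, rfl⟩
  have hd : (((detHom hF n g : Fˣ) : F)) ^ (q + 1) = 1 := by
    have := (detHom hF n g).2
    rw [MonoidHom.mem_ker] at this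
    exact congrArg Units.val this
  have hd0 : ((detHom hF n g : Fˣ) : F) ≠ 0 := Units.ne_zero _
  obtain ⟨r, hr, hrd⟩ := exists_grefl hF hunit (a := a) (by rw [ha, inv_pow, hd, inv_one])
  obtain ⟨k, hk⟩ := UTP.exists_SU_of_GU hF (r * g) (by
    rw [map_mul]
    change ((detHom hF n r : Fˣ) : F) * ((detHom hF n g : Fˣ) : F) = 1
    rw [hrd, ha, inv_mul_cancel₀ hd0])
  refine ⟨k, fun z hz => ?_⟩
  rw [hk, gact_mul, hr, hermForm_smul_right, hz, mul_zero, mul_zero, zero_smul, add_zero]

/-- A subspace containing many isotropic vectors of `U`. -/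
theorem le_of_iso (hF : Fintype.card F = q ^ 2) {U S : Submodule F (Fin n → F)} {x : Fin n → F}
    (hx : x ∈ U) (hx0 : x ≠ 0) (hxx : hermForm n F q x x = 0) (hU : ND q U)
    (h : ∀ u ∈ U, hermForm n F q u u = 0 → hermForm n F q u x ≠ 0 → u ∈ S) : U ≤ S := by
  obtain ⟨d, hd0, hd⟩ := exists_skew (F := F) (q := q) hF
  -- vectors not orthogonal to `x`
  have h1 : ∀ u ∈ U, hermForm n F q u x ≠ 0 → u ∈ S ∧ x ∈ S := by
    intro u hu hux
    have hxu : hermForm n F q x u ≠ 0 := fun h0 => hux ((hermForm_eq_zero_comm hF).1 h0)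
    obtain ⟨l, hl⟩ := exists_add_iso hF hxx hux
    have huxq : hermForm n F q u x = (hermForm n F q x u) ^ q := (hermForm_symm hF _ _).symm
    obtain ⟨l', hl'⟩ : ∃ l', l' = l + d / hermForm n F q x u := ⟨_, rfl⟩
    have hl2 : hermForm n F q (u + l' • x) (u + l' • x) = 0 := by
      rw [hermForm_add_left, hermForm_add_right hF, hermForm_smul_left, hermForm_add_right hF,
        hermForm_smul_right, hermForm_smul_right, hxx] at hl ⊢
      rw [hl', add_pow_q hF, div_pow, ← huxq, hd]
      field_simp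
      linear_combination (hermForm n F q u x * hermForm n F q x u) * hl
    have m1 : u + l • x ∈ S := h _ (U.add_mem hu (U.smul_mem _ hx)) hl (by
      rwa [hermForm_add_left, hermForm_smul_left, hxx, mul_zero, add_zero])
    have m2 : u + l' • x ∈ S := h _ (U.add_mem hu (U.smul_mem _ hx)) hl2 (by
      rwa [hermForm_add_left, hermForm_smul_left, hxx, mul_zero, add_zero])
    have m3 : (d / hermForm n F q x u) • x ∈ S := by
      have := S.sub_mem m2 m1
      rw [hl'] at this
      convert this using 1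
      module
    have hne : d / hermForm n F q x u ≠ 0 := div_ne_zero hd0 hxu
    have m4 : x ∈ S := by
      have := S.smul_mem (d / hermForm n F q x u)⁻¹ m3
      rwa [smul_smul, inv_mul_cancel₀ hne, one_smul] at this
    refine ⟨?_, m4⟩
    have := S.sub_mem m1 (S.smul_mem l m4)
    convert this using 1
    module
  obtain ⟨u₀, hu₀, hu₀x⟩ : ∃ u ∈ U, hermForm n F q u x ≠ 0 := by
    by_contra hcon
    push Not at hcon
    exact hx0 (hU x hx ((mem_perp' hF).2 hcon))
  intro u hu
  by_cases hux : hermForm n F q u x = 0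
  · have h2 := (h1 (u + u₀) (U.add_mem hu hu₀) (by rwa [hermForm_add_left, hux, zero_add])).1
    have h3 := (h1 u₀ hu₀ hu₀x).1
    have := S.sub_mem h2 h3
    rwa [add_sub_cancel_right] at this
  · exact (h1 u hu hux).1

/-- Hyperbolic partners inside a nondegenerate subspace. -/
theorem exists_hyp_in (hF : Fintype.card F = q ^ 2) {U : Submodule F (Fin n → F)} (hU : ND q U)
    {x : Fin n → F} (hx : x ∈ U) (hx0 : x ≠ 0) (hxx : hermForm n F q x x = 0) :
    ∃ y ∈ U, Hyp q x y := by
  obtain ⟨u, hu, hux⟩ : ∃ u ∈ U, hermForm n F q u x ≠ 0 := by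
    by_contra hcon
    push Not at hcon
    exact hx0 (hU x hx ((mem_perp' hF).2 hcon))
  obtain ⟨l, hl⟩ := exists_add_iso hF hxx hux
  have h1 : hermForm n F q x (u + l • x) ≠ 0 := by
    rw [hermForm_add_right hF, hermForm_smul_right, hxx, mul_zero, add_zero]
    exact fun h0 => hux ((hermForm_eq_zero_comm hF).1 h0)
  obtain ⟨c, hc⟩ : ∃ c : F, c = ((hermForm n F q x (u + l • x))⁻¹) ^ q := ⟨_, rfl⟩
  refine ⟨c • (u + l • x), U.smul_mem _ (U.add_mem hu (U.smul_mem _ hx)), hxx, ?_, ?_⟩
  · rw [hermForm_smul_left, hermForm_smul_right, hl]; ring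
  · rw [hermForm_smul_right, hc, pow_q_pow_q hF, inv_mul_cancel₀ h1]

/-- Vectors of norm `-1` orthogonal to a hyperbolic pair. -/
theorem exists_neg_one_perp (hF : Fintype.card F = q ^ 2) {U : Submodule F (Fin n → F)}
    (hU : ND q U) (h3 : 3 ≤ finrank F U) {x y : Fin n → F} (hx : x ∈ U) (hy : y ∈ U)
    (h : Hyp q x y) : ∃ v ∈ U, hermForm n F q v x = 0 ∧ hermForm n F q v y = 0 ∧
      hermForm n F q v v = -1 := by
  have hle : Submodule.span F {x, y} ≤ U := by
    rw [Submodule.span_le]
    rintro z (rfl | rfl)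
    · exact hx
    · exact hy
  have h1 := finrank_inf_perp hF (h.nd hF) hle
  have h2 : finrank F (Submodule.span F {x, y}) ≤ 2 := by
    classical
    have := finrank_span_finset_le_card (R := F) ({x, y} : Finset (Fin n → F))
    rw [Finset.coe_insert, Finset.coe_singleton] at this
    exact this.trans Finset.card_le_two
  obtain ⟨z, hz, hz1⟩ := (hU.inf_perp hF (h.nd hF) hle).exists_unit hF (by
    intro h0
    rw [h0, finrank_bot] at h1
    omega)
  obtain ⟨a, ha⟩ := exists_norm_neg_one (F := F) (q := q) hF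
  refine ⟨a • z, U.smul_mem _ hz.1, ?_, ?_, ?_⟩
  · rw [hermForm_smul_left, hz.2 x (Submodule.subset_span (by simp)), mul_zero]
  · rw [hermForm_smul_left, hz.2 y (Submodule.subset_span (by simp)), mul_zero]
  · rw [hermForm_smul_left, hermForm_smul_right, hz1, mul_one, ← pow_succ', ha]

end Cfsg.Agent.USub
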