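import Mathlib
import Cfsg.Agent.USub.NDa

set_option autoImplicit false
set_option linter.unusedSectionVars false
set_option linter.unusedVariables false
set_option linter.style.haveILetI false

/-!
Stabilisers of nondegenerate subspaces are maximal.
-/

namespace Cfsg.Agent.USub

open scoped Matrix
open Cfsg.Agent.Uni Cfsg.Geo Module
open Cfsg.Agent.UCase (SG suHom suHom_coe suHom_mem suHom_range suHom_mulVec exists_suHom
  not_le_subspaceStabilizer suHom_injective)

variable {F : Type*} [Field F] [Fintype F] {q n : ℕ}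

/-- The set of centres contains the isotropic vectors of `W` and `W^⊥`, and is stable. -/
structure NSet (q : ℕ) (W : Submodule F (Fin n → F)) (M : Subgroup (SU n F q)) : Prop where
  inW : ∀ x ∈ W, hermForm n F q x x = 0 → x ∈ XT M
  inU : ∀ x ∈ perp q W, hermForm n F q x x = 0 → x ∈ XT M
  stab : ∀ g : SU n F q, (∀ v ∈ W, act g v ∈ W) → g ∈ M

section

variable (hF : Fintype.card F = q ^ 2) {W : Submodule F (Fin n → F)} (hW : ND q W)
  {M : Subgroup (SU n F q)}

include hF hW

/-- A centre with both components nonzero. -/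
theorem NSet.exists_mixed (hM : NSet q W M) (hdim : finrank F W < finrank F (perp q W))
    (h2 : 2 ≤ finrank F (perp q W)) {g : SU n F q} (hgM : g ∈ M) (hg : ∃ v ∈ W, act g v ∉ W) :
    ∃ a ∈ W, ∃ b ∈ perp q W, a ≠ 0 ∧ b ≠ 0 ∧ a + b ∈ XT M := by
  by_contra hcon
  push Not at hcon
  have hU := hW.perp hF
  have hsplit : ∀ x ∈ XT M, x ∈ W ∨ x ∈ perp q W := by
    intro x hx
    obtain ⟨a, ha, b, hb, rfl⟩ := hW.exists_add hF x
    by_cases ha0 : a = 0
    · right; rwa [ha0, zero_add]
    · by_cases hb0 : b = 0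
      · left; rwa [hb0, add_zero]
      · exact (hcon a ha b hb ha0 hb0 hx).elim
  let T : (Fin n → F) →ₗ[F] (Fin n → F) :=
    { toFun := fun x => act g x
      map_add' := fun x y => act_add g x y
      map_smul' := fun c x => act_smul g c x }
  have hT : ∀ x, T x = act g x := fun _ => rfl
  have hinj : Function.Injective T := by
    intro x y hxy
    have h1 : act g x = act g y := hxy
    rw [← act_inv_act g x, h1, act_inv_act]
  -- isotropic vectors of `U` are mapped into `U`
  have hUU : ∀ x ∈ perp q W, x ≠ 0 → hermForm n F q x x = 0 → act g x ∈ perp q W := by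
    intro x hx hx0 hxx
    rcases hsplit _ (xt_conj (hM.inU x hx hxx) hgM) with h | h
    · exfalso
      have hle : perp q W ≤ W.comap T := by
        refine le_of_iso hF hx hx0 hxx hU fun u hu huu hux => ?_
        rw [Submodule.mem_comap, hT]
        rcases hsplit _ (xt_conj (hM.inU u hu huu) hgM) with h1 | h1
        · exact h1
        · exact absurd (by rw [← act_form g u x]; exact h1 _ h) hux
      have h3 : finrank F ((perp q W).map T) ≤ finrank F W :=
        Submodule.finrank_mono (Submodule.map_le_iff_le_comap.2 hle)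
      rw [LinearEquiv.finrank_eq (Submodule.equivMapOfInjective T hinj (perp q W)).symm] at h3
      omega
    · exact h
  obtain ⟨x, hx, hx0, hxx⟩ := hU.exists_isotropic hF h2
  have hle : perp q W ≤ (perp q W).comap T := by
    refine le_of_iso hF hx hx0 hxx hU fun u hu huu hux => ?_
    rw [Submodule.mem_comap, hT]
    refine hUU u hu ?_ huu
    rintro rfl
    exact hux (hermForm_zero_left _)
  have hstab := mem_comap_stab.1 (mem_comap_stab' (W := perp q W) (g := g) fun v hv => hle hv)
  obtain ⟨v, hv, hgv⟩ := hg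
  apply hgv
  rw [← perp_perp hF W]
  intro u hu
  have h1 : act g⁻¹ u ∈ perp q W := by
    rw [hstab, act_act_inv]; exact hu
  have h2 := (mem_perp' hF).1 h1 v hv
  rw [← act_form g, act_act_inv] at h2
  exact h2

/-- A centre with anisotropic components. -/
theorem NSet.exists_aniso (hM : NSet q W M) (h3 : 3 ≤ finrank F (perp q W)) {a b : Fin n → F}
    (ha : a ∈ W) (hb : b ∈ perp q W) (ha0 : a ≠ 0) (hb0 : b ≠ 0) (hab : a + b ∈ XT M) :
    ∃ a ∈ W, ∃ b ∈ perp q W, hermForm n F q a a ≠ 0 ∧ a + b ∈ XT M := by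
  by_cases haa : hermForm n F q a a = 0
  swap
  · exact ⟨a, ha, b, hb, haa, hab⟩
  have hU := hW.perp hF
  have hWU : ∀ w ∈ W, ∀ u ∈ perp q W, hermForm n F q w u = 0 := fun w hw u hu => (mem_perp' hF).1 hu w hw
  have hUW : ∀ u ∈ perp q W, ∀ w ∈ W, hermForm n F q u w = 0 := fun u hu w hw => hu w hw
  have hbb : hermForm n F q b b = 0 := by
    have := hab.1
    rwa [hermForm_add_left, hermForm_add_right hF, hermForm_add_right hF, haa, hWU a ha b hb,
      hUW b hb a ha, zero_add, zero_add, zero_add] at this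
  obtain ⟨z, hz, -, hzz, haz⟩ := exists_hyp_in hF hW ha ha0 haa
  obtain ⟨w, hw, hbw⟩ := exists_hyp_in hF hU hb hb0 hbb
  obtain ⟨v, hv, hvb, hvw, hvv⟩ := exists_neg_one_perp hF hU h3 hb hw hbw
  obtain ⟨-, hww, hbw1⟩ := hbw
  obtain ⟨d, hd0, hd⟩ := exists_skew (F := F) (q := q) hF
  obtain ⟨s, hs⟩ := exists_trace_eq (F := F) (q := q) hF (c := 1) (one_pow q)
  have hwv := (hermForm_eq_zero_comm hF).1 hvw
  have hbv := (hermForm_eq_zero_comm hF).1 hvb
  obtain ⟨E, hE⟩ := exists_eich hF w v s hww hwv (by rw [hs, hvv, neg_neg])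
  have hEM : E ∈ M := hM.stab E fun x hx => by
    rw [hE, hWU x hx w hw, hWU x hx v hv]
    simpa using hx
  obtain ⟨T, -, hT⟩ := exists_transv hF hzz hd
  have hTM : T ∈ M := (hM.inW z hz hzz).2 d hd T hT
  obtain ⟨a', ha'⟩ : ∃ a', a' = a + d • z := ⟨_, rfl⟩
  obtain ⟨b', hb'⟩ : ∃ b', b' = b + v + s • w := ⟨_, rfl⟩
  have ha'W : a' ∈ W := by rw [ha']; exact W.add_mem ha (W.smul_mem _ hz)
  have hb'U : b' ∈ perp q W := by
    rw [hb']; exact Submodule.add_mem _ (Submodule.add_mem _ hb hv) (Submodule.smul_mem _ _ hw)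
  have h1 : act T (a + b) = a' + b := by
    rw [hT, hermForm_add_left, haz, hUW b hb z hz, add_zero, mul_one, ha']
    abel
  have h2 : act E (a' + b) = a' + b' := by
    rw [hE, hermForm_add_left, hermForm_add_left, hWU a' ha'W w hw, hWU a' ha'W v hv, hbw1, hbv, hb']
    simp only [zero_add, add_zero, one_smul, zero_smul, sub_zero, mul_one]
    abel
  have hx2 : a' + b' ∈ XT M := by
    rw [← h2, ← h1]
    exact xt_conj (xt_conj hab hTM) hEM
  -- the pair
  have hza : hermForm n F q z a = 1 := by rw [← hermForm_symm hF, haz, one_pow]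
  have e1 : hermForm n F q a a' = -d := by
    rw [ha', hermForm_add_right hF, hermForm_smul_right, haa, haz, hd]; ring
  have e1' : hermForm n F q a' a = d := by
    rw [ha', hermForm_add_left, hermForm_smul_left, haa, hza]; ring
  have e2 : hermForm n F q b b' = s ^ q := by
    rw [hb', hermForm_add_right hF, hermForm_add_right hF, hermForm_smul_right, hbb, hbv, hbw1]; ring
  obtain ⟨κ, hκ⟩ : ∃ κ, κ = -d + s ^ q := ⟨_, rfl⟩
  have hform : hermForm n F q (a + b) (a' + b') = κ := by
    rw [hermForm_add_left, hermForm_add_right hF, hermForm_add_right hF, e1, e2, hWU a ha b' hb'U,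
      hUW b hb a' ha'W, hκ]; ring
  have hκq : κ ^ q = d + s := by
    rw [hκ, add_pow_q hF, neg_pow_q hF, hd, pow_q_pow_q hF]; ring
  have htr : κ + κ ^ q = 1 := by rw [hκq, hκ]; linear_combination hs
  have hκ0 : κ ≠ 0 := by
    intro h0
    rw [h0, zero_pow_q hF, add_zero] at htr
    exact zero_ne_one htr
  have hκq0 : κ ^ q ≠ 0 := pow_ne_zero _ hκ0
  obtain ⟨m, hm⟩ : ∃ m, m = d / κ := ⟨_, rfl⟩
  have hmq : m ^ q = -d / κ ^ q := by rw [hm, div_pow, hd]
  have ha'a' : hermForm n F q a' a' = 0 := by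
    rw [ha', hermForm_add_left, hermForm_add_right hF, hermForm_add_right hF, hermForm_smul_left,
      hermForm_smul_left, hermForm_smul_right, hermForm_smul_right, haa, haz, hza, hzz, hd]; ring
  have hform' : hermForm n F q (a' + b') (a + b) = κ ^ q := by rw [← hform, hermForm_symm hF]
  have gen : ∀ x y : Fin n → F, hermForm n F q x x = 0 → hermForm n F q y y = 0 →
      hermForm n F q x y = κ → hermForm n F q y x = κ ^ q →
      hermForm n F q (y + m • x) (y + m • x) = 0 := by
    intro x y g1 g2 g3 g4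
    rw [hermForm_add_left, hermForm_add_right hF, hermForm_smul_left, hermForm_add_right hF,
      hermForm_smul_right, hermForm_smul_right, g1, g2, g3, g4, hmq, hm]
    field_simp
    ring
  have hiso : hermForm n F q ((a' + b') + m • (a + b)) ((a' + b') + m • (a + b)) = 0 :=
    gen _ _ hab.1 hx2.1 hform hform'
  have h4 := xt_pair hF hab hx2 (by rw [hform]; exact hκ0) hiso
  refine ⟨a' + m • a, W.add_mem ha'W (W.smul_mem _ ha), b' + m • b,
    Submodule.add_mem _ hb'U (Submodule.smul_mem _ _ hb), ?_, ?_⟩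
  · have : hermForm n F q (a' + m • a) (a' + m • a) = -(d ^ 2) / (κ * κ ^ q) := by
      rw [hermForm_add_left, hermForm_add_right hF, hermForm_smul_left, hermForm_add_right hF,
        hermForm_smul_right, hermForm_smul_right, ha'a', haa, e1, e1', hmq, hm]
      field_simp
      linear_combination (-d ^ 2) * htr
    rw [this]
    exact div_ne_zero (neg_ne_zero.2 (pow_ne_zero _ hd0)) (mul_ne_zero hκ0 hκq0)
  · convert h4 using 1
    module

/-- All vectors with anisotropic components. -/
theorem NSet.all_aniso (hM : NSet q W M) (h3 : 3 ≤ finrank F (perp q W)) {a b : Fin n → F}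
    (ha : a ∈ W) (hb : b ∈ perp q W) (haa : hermForm n F q a a ≠ 0) (hab : a + b ∈ XT M)
    {a' b' : Fin n → F} (ha' : a' ∈ W) (hb' : b' ∈ perp q W) (ha'a' : hermForm n F q a' a' ≠ 0)
    (hiso : hermForm n F q (a' + b') (a' + b') = 0) : a' + b' ∈ XT M := by
  have hU := hW.perp hF
  have hWU : ∀ w ∈ W, ∀ u ∈ perp q W, hermForm n F q w u = 0 := fun w hw u hu => (mem_perp' hF).1 hu w hw
  have hUW : ∀ u ∈ perp q W, ∀ w ∈ W, hermForm n F q u w = 0 := fun u hu w hw => hu w hw
  have hsum : ∀ {x y : Fin n → F}, x ∈ W → y ∈ perp q W → hermForm n F q (x + y) (x + y) = 0 →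
      hermForm n F q y y = -hermForm n F q x x := by
    intro x y hx hy h
    rw [hermForm_add_left, hermForm_add_right hF, hermForm_add_right hF, hWU x hx y hy,
      hUW y hy x hx, add_zero, zero_add] at h
    linear_combination h
  have hbb := hsum ha hb hab.1
  have hb'b' := hsum ha' hb' hiso
  -- an anisotropic vector of `U` orthogonal to a given anisotropic vector
  have hexe : ∀ b ∈ perp q W, hermForm n F q b b ≠ 0 → ∃ e ∈ perp q W, hermForm n F q e e ≠ 0 ∧
      hermForm n F q b e = 0 := by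
    intro b hb hbb
    have hb0 : b ≠ 0 := by rintro rfl; exact hbb (hermForm_zero_left _)
    have hle : Submodule.span F {b} ≤ perp q W := by
      rw [Submodule.span_singleton_le_iff_mem]; exact hb
    have h1 := finrank_inf_perp hF (nd_span_unit hbb) hle
    rw [finrank_span_singleton hb0] at h1
    obtain ⟨e, he, he1⟩ := (hU.inf_perp hF (nd_span_unit hbb) hle).exists_unit hF (by
      intro h0; rw [h0, finrank_bot] at h1; omega)
    exact ⟨e, he.1, by rw [he1]; exact one_ne_zero,
      (hermForm_eq_zero_comm hF).1 (he.2 b (Submodule.mem_span_singleton_self b))⟩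
  -- scaling
  obtain ⟨μ, hμ⟩ := exists_norm_eq (F := F) (q := q) hF
    (c := hermForm n F q a' a' / hermForm n F q a a)
    (by rw [div_pow, hermForm_self_pow_q hF, hermForm_self_pow_q hF])
  have hμ0 : μ ≠ 0 := by
    intro h0
    rw [h0, zero_pow (by omega)] at hμ
    exact div_ne_zero ha'a' haa hμ.symm
  obtain ⟨c, hc⟩ : ∃ c, c = μ⁻¹ • a' := ⟨_, rfl⟩
  obtain ⟨d, hd⟩ : ∃ d, d = μ⁻¹ • b' := ⟨_, rfl⟩
  have hcW : c ∈ W := by rw [hc]; exact W.smul_mem _ ha'
  have hdU : d ∈ perp q W := by rw [hd]; exact Submodule.smul_mem _ _ hb'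
  have hμn : μ * μ ^ q * hermForm n F q a a = hermForm n F q a' a' := by
    rw [← pow_succ', hμ, div_mul_cancel₀ _ haa]
  have hμq0 : μ ^ q ≠ 0 := pow_ne_zero _ hμ0
  have hcc : hermForm n F q c c = hermForm n F q a a := by
    rw [hc, hermForm_smul_left, hermForm_smul_right, ← hμn, inv_pow]
    field_simp
  have hdd : hermForm n F q d d = hermForm n F q b b := by
    rw [hd, hermForm_smul_left, hermForm_smul_right, hb'b', ← hμn, hbb, inv_pow]
    field_simp
  have ha0 : a ≠ 0 := by rintro rfl; exact haa (hermForm_zero_left _)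
  have hc0 : c ≠ 0 := by
    rintro h0
    rw [h0, hermForm_zero_left] at hcc
    exact haa hcc.symm
  have hbb0 : hermForm n F q b b ≠ 0 := by rw [hbb]; exact neg_ne_zero.2 haa
  have hb0 : b ≠ 0 := by rintro rfl; exact hbb0 (hermForm_zero_left _)
  have hdd0 : hermForm n F q d d ≠ 0 := by rw [hdd]; exact hbb0
  have hd0 : d ≠ 0 := by rintro h0; rw [h0, hermForm_zero_left] at hdd0; exact hdd0 rfl
  -- first step
  have s1 : c + b ∈ XT M := by
    obtain ⟨g, hg1, hg2⟩ := exists_GU_fix hF hU (c := a) (c' := c)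
      (by rw [perp_perp hF]; exact ha) (by rw [perp_perp hF]; exact hcW) ha0 hc0 hcc.symm
    obtain ⟨e, heU, hee, hbe⟩ := hexe b hb hbb0
    obtain ⟨k, hk⟩ := exists_SU_adjust hF g hee
    have hgW : ∀ z ∈ W, gact g z ∈ W := by
      intro z hz
      rw [← perp_perp hF W]
      intro u hu
      rw [← hg1 u hu, gact_form]
      exact hWU z hz u hu
    have hkW : ∀ z ∈ W, act k z = gact g z := fun z hz => hk z (hWU _ (hgW z hz) e heU)
    have hkM : k ∈ M := hM.stab k fun z hz => by rw [hkW z hz]; exact hgW z hz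
    have := xt_conj hab hkM
    rw [act_add, hkW a ha, hg2, hk b (by rw [hg1 b hb]; exact hbe), hg1 b hb] at this
    exact this
  -- second step
  have s2 : c + d ∈ XT M := by
    obtain ⟨g, hg1, hg2⟩ := exists_GU_fix hF hW (c := b) (c' := d) hb hdU hb0 hd0 hdd.symm
    obtain ⟨e, heU, hee, hde⟩ := hexe d hdU hdd0
    obtain ⟨k, hk⟩ := exists_SU_adjust hF g hee
    have hkW : ∀ z ∈ W, act k z = z := fun z hz => by
      rw [hk z (by rw [hg1 z hz]; exact hWU z hz e heU), hg1 z hz]
    have hkM : k ∈ M := hM.stab k fun z hz => by rw [hkW z hz]; exact hz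
    have := xt_conj s1 hkM
    rw [act_add, hkW c hcW, hk b (by rw [hg2]; exact hde), hg2] at this
    exact this
  have := xt_smul hF s2 μ
  rwa [smul_add, hc, hd, smul_smul, smul_smul, mul_inv_cancel₀ hμ0, one_smul, one_smul] at this

end

end Cfsg.Agent.USub
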