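import Mathlib
import Cfsg.Agent.USub.NDb

set_option autoImplicit false
set_option linter.unusedSectionVars false
set_option linter.unusedVariables false
set_option linter.style.haveILetI false

/-!
Stabilisers of nondegenerate subspaces are maximal: conclusion.
-/

namespace Cfsg.Agent.USub

open scoped Matrix
open Cfsg.Agent.Uni Cfsg.Geo Module
open Cfsg.Agent.UCase (SG suHom suHom_coe suHom_mem suHom_range suHom_mulVec exists_suHom
  not_le_subspaceStabilizer suHom_injective)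

variable {F : Type*} [Field F] [Fintype F] {q n : ℕ}

theorem NSet.all (hF : Fintype.card F = q ^ 2) {W : Submodule F (Fin n → F)} (hW : ND q W)
    {M : Subgroup (SU n F q)} (hM : NSet q W M) (h3 : 3 ≤ finrank F (perp q W)) {a₀ b₀ : Fin n → F}
    (ha₀ : a₀ ∈ W) (hb₀ : b₀ ∈ perp q W) (haa₀ : hermForm n F q a₀ a₀ ≠ 0) (hab₀ : a₀ + b₀ ∈ XT M)
    (x : Fin n → F) (hx : hermForm n F q x x = 0) : x ∈ XT M := by
  have hU := hW.perp hF
  have hWU : ∀ w ∈ W, ∀ u ∈ perp q W, hermForm n F q w u = 0 := fun w hw u hu => (mem_perp' hF).1 hu w hw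
  have hUW : ∀ u ∈ perp q W, ∀ w ∈ W, hermForm n F q u w = 0 := fun u hu w hw => hu w hw
  obtain ⟨a, ha, b, hb, rfl⟩ := hW.exists_add hF x
  by_cases ha0 : a = 0
  · rw [ha0, zero_add] at hx ⊢
    exact hM.inU b hb hx
  by_cases haa : hermForm n F q a a = 0
  swap
  · exact hM.all_aniso hF hW h3 ha₀ hb₀ haa₀ hab₀ ha hb haa hx
  have hbb : hermForm n F q b b = 0 := by
    rwa [hermForm_add_left, hermForm_add_right hF, hermForm_add_right hF, haa, hWU a ha b hb,
      hUW b hb a ha, zero_add, zero_add, zero_add] at hx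
  obtain ⟨z, hz, -, hzz, haz⟩ := exists_hyp_in hF hW ha ha0 haa
  have hza : hermForm n F q z a = 1 := by rw [← hermForm_symm hF, haz, one_pow]
  obtain ⟨t, ht⟩ := exists_trace_eq (F := F) (q := q) hF (c := 1) (one_pow q)
  obtain ⟨d, hd0, hd⟩ := exists_skew (F := F) (q := q) hF
  -- the `U`-component
  obtain ⟨b₁, hb₁, hb₁b, hb₁b₁⟩ : ∃ v ∈ perp q W, hermForm n F q v b = 0 ∧ hermForm n F q v v = -1 := by
    by_cases hb0 : b = 0
    · obtain ⟨u, hu, hu0, huu⟩ := hU.exists_isotropic hF (by omega)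
      obtain ⟨w, hw, huw⟩ := exists_hyp_in hF hU hu hu0 huu
      obtain ⟨v, hv, -, -, hvv⟩ := exists_neg_one_perp hF hU h3 hu hw huw
      exact ⟨v, hv, by rw [hb0, hermForm_zero_right hF], hvv⟩
    · obtain ⟨w, hw, hbw⟩ := exists_hyp_in hF hU hb hb0 hbb
      obtain ⟨v, hv, hvb, -, hvv⟩ := exists_neg_one_perp hF hU h3 hb hw hbw
      exact ⟨v, hv, hvb, hvv⟩
  have hbb₁ := (hermForm_eq_zero_comm hF).1 hb₁b
  obtain ⟨a₁, ha₁⟩ : ∃ a₁, a₁ = z + t • a := ⟨_, rfl⟩
  have ha₁W : a₁ ∈ W := by rw [ha₁]; exact W.add_mem hz (W.smul_mem _ ha)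
  have e1 : hermForm n F q a₁ a = 1 := by
    rw [ha₁, hermForm_add_left, hermForm_smul_left, hza, haa]; ring
  have e1' : hermForm n F q a a₁ = 1 := by rw [← hermForm_symm hF, e1, one_pow]
  have e2 : hermForm n F q a₁ a₁ = 1 := by
    rw [ha₁, hermForm_add_left, hermForm_add_right hF, hermForm_smul_left, hermForm_add_right hF,
      hermForm_smul_right, hermForm_smul_right, hzz, hza, haz, haa]
    linear_combination ht
  have hsumf : ∀ x x' y y' : Fin n → F, x ∈ W → x' ∈ W → y ∈ perp q W → y' ∈ perp q W →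
      hermForm n F q (x + y) (x' + y') = hermForm n F q x x' + hermForm n F q y y' := by
    intro x x' y y' hx hx' hy hy'
    rw [hermForm_add_left, hermForm_add_right hF, hermForm_add_right hF, hWU x hx y' hy',
      hUW y hy x' hx']; ring
  have x1 : a₁ + b₁ ∈ XT M := hM.all_aniso hF hW h3 ha₀ hb₀ haa₀ hab₀ ha₁W hb₁
    (by rw [e2]; exact one_ne_zero) (by rw [hsumf _ _ _ _ ha₁W ha₁W hb₁ hb₁, e2, hb₁b₁]; ring)
  have e3 : hermForm n F q (a₁ + d • a) (a₁ + d • a) = 1 := by
    rw [hermForm_add_left, hermForm_add_right hF, hermForm_smul_left, hermForm_add_right hF,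
      hermForm_smul_right, hermForm_smul_right, e1, e1', e2, haa, hd]; ring
  have e4 : hermForm n F q (b₁ + d • b) (b₁ + d • b) = -1 := by
    rw [hermForm_add_left, hermForm_add_right hF, hermForm_smul_left, hermForm_add_right hF,
      hermForm_smul_right, hermForm_smul_right, hb₁b, hbb₁, hb₁b₁, hbb, hd]; ring
  have hW2 : a₁ + d • a ∈ W := W.add_mem ha₁W (W.smul_mem _ ha)
  have hU2 : b₁ + d • b ∈ perp q W := Submodule.add_mem _ hb₁ (Submodule.smul_mem _ _ hb)
  have x2 : (a₁ + d • a) + (b₁ + d • b) ∈ XT M := hM.all_aniso hF hW h3 ha₀ hb₀ haa₀ hab₀ hW2 hU2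
    (by rw [e3]; exact one_ne_zero) (by rw [hsumf _ _ _ _ hW2 hW2 hU2 hU2, e3, e4]; ring)
  have e5 : hermForm n F q (a₁ + b₁) ((a₁ + d • a) + (b₁ + d • b)) = d ^ q := by
    rw [hsumf _ _ _ _ ha₁W hW2 hb₁ hU2, hermForm_add_right hF, hermForm_add_right hF,
      hermForm_smul_right, hermForm_smul_right, e1, e2, hb₁b, hb₁b₁]; ring
  have e6 : ((a₁ + d • a) + (b₁ + d • b)) + (-1 : F) • (a₁ + b₁) = d • (a + b) := by module
  have x3 := xt_pair hF x1 x2 (m := -1) (by rw [e5]; exact pow_ne_zero _ hd0) (by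
    rw [e6, hermForm_smul_left, hermForm_smul_right, hx]; ring)
  rw [e6] at x3
  have x4 := xt_smul hF x3 d⁻¹
  rwa [smul_smul, inv_mul_cancel₀ hd0, one_smul] at x4

theorem nd_maximal (hF : Fintype.card F = q ^ 2) (hn : 6 ≤ n) {W : Submodule F (Fin n → F)}
    (hW0 : W ≠ ⊥) (hW : IsNondegenerateOn (hermForm n F q) W) (hdim : 2 * finrank F W < n) :
    IsMaximalIn (SG n F q) (subspaceStabilizer W ⊓ SG n F q) := by
  have hnd : ND q W := by
    intro x hx hxp
    by_contra hx0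
    obtain ⟨-, y, hy, hxy⟩ := hW x hx hx0
    exact hxy (hxp y hy)
  have hfr := finrank_perp hF W
  refine isMaximalIn_of_su inf_le_right ?_ fun M hle hne => ?_
  · intro h
    refine not_le_subspaceStabilizer (F := F) hF (by omega) W hW0 ?_ (h.trans inf_le_left)
    rintro rfl
    rw [finrank_top, Module.finrank_fin_fun] at hdim
    omega
  have hM : NSet q W M := by
    refine ⟨fun x hx hxx => ⟨hxx, fun c hc g hg => hle (mem_comap_stab' fun v hv => ?_)⟩,
      fun x hx hxx => ⟨hxx, fun c hc g hg => hle (mem_comap_stab' fun v hv => ?_)⟩,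
      fun g hg => hle (mem_comap_stab' hg)⟩
    · rw [hg]; exact W.add_mem hv (W.smul_mem _ hx)
    · rw [hg, (mem_perp' hF).1 hx v hv, mul_zero, zero_smul, add_zero]; exact hv
  obtain ⟨g, hgM, hg⟩ : ∃ g ∈ M, g ∉ (subspaceStabilizer W ⊓ SG n F q).comap (suHom n F q) := by
    by_contra hcon
    push Not at hcon
    exact hne (le_antisymm hcon hle)
  have hg' : ∃ v ∈ W, act g v ∉ W := by
    by_contra hcon
    push Not at hcon
    exact hg (mem_comap_stab' hcon)
  obtain ⟨a, ha, b, hb, ha0, hb0, hab⟩ := hM.exists_mixed hF hnd (by omega) (by omega) hgM hg'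
  obtain ⟨a', ha', b', hb', haa', hab'⟩ := hM.exists_aniso hF hnd (by omega) ha hb ha0 hb0 hab
  exact top_of_xt hF (by omega) (by omega) fun x hx =>
    hM.all hF hnd (by omega) ha' hb' haa' hab' x hx

end Cfsg.Agent.USub
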